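import Cfsg.Agent.Lib.Helper57.TSO.Defs
import Cfsg.Agent.Lib.Helper99.TensorNM

set_option autoImplicit false

/-!
# TSO (S5980), package [TRANS]

Transport of a conjugate lying in the tensor subgroup to a Kronecker product preserving
`G₁ ⊗ G₂`.
-/

universe u

namespace Cfsg.Agent.Lib.Helper39.TSO

open Matrix
open scoped Kronecker MatrixGroups
open Cfsg.Agent.Lib.Helper57.TSO
open Cfsg.Agent.Lib.Helper99

theorem pkgTrans : PkgTrans.{u} := by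
  intro F _ _ d a b ha hb e P f₁ f₂ hf₁ hf₂ hS x g hx hg hmem
  classical
  obtain ⟨c, hc, hform⟩ := hS
  obtain ⟨y, hy, hxy⟩ := hmem
  obtain ⟨k, hk, rfl⟩ := hy
  obtain ⟨A, B, hAB⟩ := hk
  obtain ⟨M, hM⟩ : ∃ M : Matrix (Fin a × Fin b) (Fin a × Fin b) F,
      M = (A : Matrix (Fin a) (Fin a) F) ⊗ₖ (B : Matrix (Fin b) (Fin b) F) := ⟨_, rfl⟩
  have hkM : (k : Matrix (Fin a × Fin b) (Fin a × Fin b) F) = M := by rw [hM, hAB]
  obtain ⟨G₁, hG₁⟩ : ∃ G₁ : Matrix (Fin a) (Fin a) F, G₁ = Cfsg.Geo.gramMatrix f₁ := ⟨_, rfl⟩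
  obtain ⟨G₂, hG₂⟩ : ∃ G₂ : Matrix (Fin b) (Fin b) F, G₂ = Cfsg.Geo.gramMatrix f₂ := ⟨_, rfl⟩
  rw [← hG₁, ← hG₂] at hform
  -- rank and powers
  obtain ⟨Φ, hΦ⟩ : ∃ Φ, Φ = Matrix.reindexAlgEquiv F F e.symm := ⟨_, rfl⟩
  have hY : ((Cfsg.Geo.glReindex e.symm k : GL (Fin d ⊕ Fin d) F) :
      Matrix (Fin d ⊕ Fin d) (Fin d ⊕ Fin d) F) = Φ M := by
    rw [← hkM, hΦ]
    rfl
  have hconj : x * (g * P) = (g * P) * Cfsg.Geo.glReindex e.symm k := by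
    have h1 : P * Cfsg.Geo.glReindex e.symm k * P⁻¹ = g⁻¹ * x * g := hxy
    calc x * (g * P) = g * (g⁻¹ * x * g) * P := by group
      _ = g * (P * Cfsg.Geo.glReindex e.symm k * P⁻¹) * P := by rw [h1]
      _ = (g * P) * Cfsg.Geo.glReindex e.symm k := by group
  obtain ⟨hh, hhdef⟩ : ∃ hh : GL (Fin d ⊕ Fin d) F, hh = g * P := ⟨_, rfl⟩
  have hconjM : (hh : Matrix (Fin d ⊕ Fin d) (Fin d ⊕ Fin d) F) * Φ M =
      (x : Matrix (Fin d ⊕ Fin d) (Fin d ⊕ Fin d) F) *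
        (hh : Matrix (Fin d ⊕ Fin d) (Fin d ⊕ Fin d) F) := by
    rw [← hY, ← Units.val_mul, ← Units.val_mul, hhdef, hconj]
  have hdet : IsUnit (hh : Matrix (Fin d ⊕ Fin d) (Fin d ⊕ Fin d) F).det :=
    (Matrix.isUnit_iff_isUnit_det _).1 hh.isUnit
  have hrank : ∀ μ : F, ((x : Matrix (Fin d ⊕ Fin d) (Fin d ⊕ Fin d) F) - μ • 1).rank =
      (M - μ • 1).rank := by
    intro μ
    have h1 : (hh : Matrix (Fin d ⊕ Fin d) (Fin d ⊕ Fin d) F) * (Φ M - μ • 1) =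
        ((x : Matrix (Fin d ⊕ Fin d) (Fin d ⊕ Fin d) F) - μ • 1) *
          (hh : Matrix (Fin d ⊕ Fin d) (Fin d ⊕ Fin d) F) := by
      rw [mul_sub, sub_mul, hconjM]
      simp
    have h2 : ((x : Matrix (Fin d ⊕ Fin d) (Fin d ⊕ Fin d) F) - μ • 1).rank =
        (Φ M - μ • 1).rank := by
      rw [← Matrix.rank_mul_eq_right_of_isUnit_det
        (hh : Matrix (Fin d ⊕ Fin d) (Fin d ⊕ Fin d) F) (Φ M - μ • 1) hdet, h1,
        Matrix.rank_mul_eq_left_of_isUnit_det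
        (hh : Matrix (Fin d ⊕ Fin d) (Fin d ⊕ Fin d) F) _ hdet]
    rw [h2]
    have h3 : Φ M - μ • (1 : Matrix (Fin d ⊕ Fin d) (Fin d ⊕ Fin d) F) = Φ (M - μ • 1) := by
      rw [map_sub, map_smul, map_one]
    rw [h3, hΦ, Matrix.coe_reindexAlgEquiv, Matrix.rank_reindex]
  have hpowc : ∀ j : ℕ, (hh : Matrix (Fin d ⊕ Fin d) (Fin d ⊕ Fin d) F) * (Φ M) ^ j =
      (x : Matrix (Fin d ⊕ Fin d) (Fin d ⊕ Fin d) F) ^ j *
        (hh : Matrix (Fin d ⊕ Fin d) (Fin d ⊕ Fin d) F) := by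
    intro j
    induction j with
    | zero => simp
    | succ j ih => rw [pow_succ, ← mul_assoc, ih, mul_assoc, hconjM, ← mul_assoc, ← pow_succ]
  have hpow : ∀ (j : ℕ) (z : F),
      (x : Matrix (Fin d ⊕ Fin d) (Fin d ⊕ Fin d) F) ^ j = z • 1 → M ^ j = z • 1 := by
    intro j z hz
    have h1 := hpowc j
    rw [hz] at h1
    have h2 : (Φ M) ^ j = z • 1 := by
      have h3 : ((hh⁻¹ : GL (Fin d ⊕ Fin d) F) : Matrix (Fin d ⊕ Fin d) (Fin d ⊕ Fin d) F) *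
          ((hh : Matrix (Fin d ⊕ Fin d) (Fin d ⊕ Fin d) F) * (Φ M) ^ j) = (Φ M) ^ j := by
        rw [← mul_assoc, ← Units.val_mul, inv_mul_cancel, Units.val_one, one_mul]
      rw [← h3, h1, Matrix.smul_mul, Matrix.one_mul, Matrix.mul_smul, ← Units.val_mul,
        inv_mul_cancel, Units.val_one]
    apply Φ.injective
    rw [map_pow, h2, map_smul, map_one]
  -- the form
  have hx' : g⁻¹ * x * g ∈ Cfsg.spGL d F :=
    (Cfsg.spGL d F).mul_mem ((Cfsg.spGL d F).mul_mem ((Cfsg.spGL d F).inv_mem hg) hx) hg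
  have hphi : tnPhi e P k = g⁻¹ * x * g := hxy
  rw [← hphi] at hx'
  have hpres : ∀ u v : Fin d ⊕ Fin d → F, Cfsg.sympForm d F
      (((tnPhi e P k : GL (Fin d ⊕ Fin d) F) : Matrix (Fin d ⊕ Fin d) (Fin d ⊕ Fin d) F) *ᵥ u)
      (((tnPhi e P k : GL (Fin d ⊕ Fin d) F) : Matrix (Fin d ⊕ Fin d) (Fin d ⊕ Fin d) F) *ᵥ v) =
        Cfsg.sympForm d F u v := hx'
  have hmap : M.map (RingHom.id F) = M := by
    ext i j
    rfl
  have hMG : Mᵀ * (G₁ ⊗ₖ G₂) * M = G₁ ⊗ₖ G₂ := by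
    ext p q
    have h1 := hpres (tnT e P (Pi.single p 1)) (tnT e P (Pi.single q 1))
    rw [tnPhi_mulVec, tnPhi_mulVec, hkM] at h1
    have h2 : Cfsg.sympForm d F (tnT e P (M *ᵥ Pi.single p 1)) (tnT e P (M *ᵥ Pi.single q 1)) =
        c * Cfsg.Geo.formOfGram (RingHom.id F) (G₁ ⊗ₖ G₂) (M *ᵥ Pi.single p 1)
          (M *ᵥ Pi.single q 1) := hform _ _
    have h3 : Cfsg.sympForm d F (tnT e P (Pi.single p 1)) (tnT e P (Pi.single q 1)) =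
        c * Cfsg.Geo.formOfGram (RingHom.id F) (G₁ ⊗ₖ G₂) (Pi.single p 1) (Pi.single q 1) :=
      hform _ _
    rw [h2, h3, fog_map, hmap, fog_single_single, fog_single_single] at h1
    exact mul_left_cancel₀ hc h1
  refine ⟨A, B, G₁, G₂, ?_, ?_, ?_, ?_, ?_, ?_, ?_, ?_⟩
  · exact ((Matrix.isUnit_iff_isUnit_det _).1 A.isUnit).ne_zero
  · exact ((Matrix.isUnit_iff_isUnit_det _).1 B.isUnit).ne_zero
  · intro h0
    have hv : (Pi.single (⟨0, ha⟩ : Fin a) (1 : F) : Fin a → F) ≠ 0 := by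
      intro h
      have h1 := congrFun h ⟨0, ha⟩
      simp at h1
    obtain ⟨⟨w, hw⟩, -⟩ := hf₁.nondegenerate _ hv
    apply hw
    rw [form_eq_fog hf₁.bilinear, ← hG₁, h0]
    simp [Cfsg.Geo.formOfGram]
  · ext i j
    rw [Matrix.transpose_apply, hG₂]
    exact hf₂.symm _ _
  · intro h0
    obtain ⟨v, hv, hGv⟩ := Matrix.exists_mulVec_eq_zero_iff.2 h0
    obtain ⟨⟨w, hw⟩, -⟩ := hf₂.nondegenerate v hv
    apply hw
    rw [form_eq_fog hf₂.bilinear, fog_eq_dot]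
    have h1 : (id : F → F) ∘ v = v := rfl
    rw [h1, ← hG₂, hGv, dotProduct_zero]
  · calc ((A : Matrix (Fin a) (Fin a) F)ᵀ * G₁ * (A : Matrix (Fin a) (Fin a) F)) ⊗ₖ
          ((B : Matrix (Fin b) (Fin b) F)ᵀ * G₂ * (B : Matrix (Fin b) (Fin b) F))
        = Mᵀ * (G₁ ⊗ₖ G₂) * M := by
          rw [hM, Matrix.mul_kronecker_mul, Matrix.mul_kronecker_mul,
            Matrix.kroneckerMap_transpose]
      _ = G₁ ⊗ₖ G₂ := hMG
  · rw [← hM]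
    exact hrank
  · rw [← hM]
    exact hpow

end Cfsg.Agent.Lib.Helper39.TSO
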